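import Mathlib
import Cfsg.Agent.Lib.FTHM.Ident
import Cfsg.Agent.Lib.FTHM.L4
import Cfsg.Agent.Lib.FiType.Types
import Cfsg.Agent.Lib.FiType.Comp

/-!
# Fischer's theorem: from the tower to the three sporadic groups
-/

set_option autoImplicit false

namespace CfsgLib.FTHM

open Cfsg Cfsg.Spor Subgroup CfsgLib.ThreeTrans CfsgLib.Fischer

universe u

section ident
variable {G : Type*} [Group G]

theorem typeM24_map (e : Fi24 ≃* G) : IsOfTypeM24 G (e '' conjugatesOf (g24 0)) := by
  obtain ⟨β, h, -⟩ := FiType.kiso24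
  have t24 := TT.of_group model24.group
  have tG := TT.of_group (model24.map e).group
  have he : KIso (conjugatesOf (g24 0)) (e '' conjugatesOf (g24 0)) e := KIso.of_hom (e : Fi24 →* G) e.injective.injOn
  have h11 := FiType.g24_mem (m := 11) (by omega)
  have h10 := FiType.g24_mem (m := 10) (by omega)
  refine ⟨(model24.map e).center, _, he.mem h11, _, he.mem h10,
    fun hc => FiType.not_commute_lk ((he.commute_iff t24 tG.1 h11 h10).1 hc), ?_, ?_⟩
  · obtain ⟨e', -, he'⟩ := FiType.exists_equiv_quot_of_kiso (h.trans (he.perp t24 tG.1 h11) (TT.of_group model23.group))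
      (TT.of_group model23.group) (tG.perp' _).1 model23.cls.2.2 model23.center
    have := FiType.typeM23_map e'
    rwa [he'] at this
  · obtain ⟨e1⟩ := FiType.exists_equiv_lk
    obtain ⟨e2, -⟩ := (kiso_mu he t24 tG.1 h11 h10).exists_quot_equiv (tt_mu t24 _ _) (tt_mu tG _ _).1
    exact (FiType.isTri_L8 FiType.fM23).map (e1.trans e2)

end ident

variable {G : Type u} [Group G] [Finite G] {D : Set G}

theorem Loc.ch {r : ℕ} : ∀ {E : Set G}, Loc r E → FiType.Ch r E := by
  induction r with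
  | zero =>
    rintro E ⟨p, T⟩
    obtain ⟨β, hβ⟩ := FiType.u6_kei_range model22 FiType.pt22_eq gf4_card
    obtain ⟨p', T'⟩ := utable_pT (n := 6) (by omega)
    obtain ⟨γ, hγ, -⟩ := T'.exists_kiso T
    exact ⟨_, hβ.trans hγ ((TT.of_group model22.group).perp' _)⟩
  | succ r ih =>
    intro E h
    obtain ⟨d, hd⟩ := h.1.toKCls.nonempty
    refine ⟨d, hd, ?_⟩
    have : FiType.core (perp E d) = perp E d := by
      refine Set.Subset.antisymm (fun _ h => h.1) fun y hy => ⟨hy, ?_⟩
      obtain ⟨C, h1, h2, -⟩ := (h.2 d hd).exists_clique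
      obtain ⟨b, hb, hne⟩ := Finset.exists_mem_ne (s := C) (by omega) y
      exact (h.1.perp_sconn hd).exists_not_commute hy (h2 hb) hne.symm
    rw [this]
    exact ih (h.2 d hd)

theorem Loc.ident22 (h : Loc 1 D) (ht : closure D = ⊤) (hz : center G = ⊥) :
    ∃ e : G ≃* Fi22, e '' D = conjugatesOf (g22 0) := FiType.prim_ch22 G D (h.1.prim ht) hz h.ch

theorem Loc.ident23 (h : Loc 2 D) (ht : closure D = ⊤) (hz : center G = ⊥) :
    ∃ e : G ≃* Fi23, e '' D = conjugatesOf (g23 0) := FiType.prim_ch23 G D (h.1.prim ht) hz h.ch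

theorem Loc.ident24 (h : Loc 3 D) (ht : closure D = ⊤) (hz : center G = ⊥) :
    ∃ e : G ≃* Fi24, e '' D = conjugatesOf (g24 0) := FiType.prim_ch24 G D (h.1.prim ht) hz h.ch

theorem Loc.type22 (h : Loc 1 D) (ht : closure D = ⊤) (hz : center G = ⊥) : IsOfTypeM22 G D := by
  obtain ⟨e, he⟩ := h.ident22 ht hz
  exact FiType.typeM22_of_model (model22.comap e he) fun m hm => by rw [FiType.pt22_eq m hm]

theorem Loc.type23 (h : Loc 2 D) (ht : closure D = ⊤) (hz : center G = ⊥) : IsOfTypeM23 G D := by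
  obtain ⟨e, he⟩ := h.ident23 ht hz
  rw [← image_symm_eq he]; exact FiType.typeM23_map e.symm

theorem Loc.type24 (h : Loc 3 D) (ht : closure D = ⊤) (hz : center G = ⊥) : IsOfTypeM24 G D := by
  obtain ⟨e, he⟩ := h.ident24 ht hz
  rw [← image_symm_eq he]; exact typeM24_map e.symm

end CfsgLib.FTHM
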